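import Mathlib
import Cfsg.Prelude.Def_Transfer
import Cfsg.Agent.Lib.PGroups.Basic

set_option autoImplicit false
set_option linter.unusedSectionVars false
set_option linter.unusedVariables false

namespace Cfsg.Agent.Lib.InvolChar.CliffordGroup

open Matrix
open scoped commutatorElement

/-- The sign character of `ZMod 2`. -/
noncomputable def sg (z : ZMod 2) : ℝ := if z = 0 then 1 else -1

@[simp] lemma sg_zero : sg 0 = 1 := rfl
@[simp] lemma sg_one : sg 1 = -1 := rfl

lemma zmod2_cases (z : ZMod 2) : z = 0 ∨ z = 1 := by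
  revert z
  decide

lemma sg_add (a b : ZMod 2) : sg (a + b) = sg a * sg b := by
  rcases zmod2_cases a with rfl | rfl <;> rcases zmod2_cases b with rfl | rfl
  · simp
  · simp
  · simp
  · have : (1 : ZMod 2) + 1 = 0 := by decide
    rw [this]
    simp

lemma sg_sq (a : ZMod 2) : sg a * sg a = 1 := by
  rw [← sg_add]
  have : a + a = 0 := CharTwo.add_self_eq_zero a
  rw [this]
  simp

lemma sg_ne_zero (a : ZMod 2) : sg a ≠ 0 := by
  rcases zmod2_cases a with rfl | rfl <;> simp

lemma sg_inj {a b : ZMod 2} (h : sg a = sg b) : a = b := by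
  rcases zmod2_cases a with rfl | rfl <;> rcases zmod2_cases b with rfl | rfl
  · rfl
  · norm_num at h
  · norm_num at h
  · rfl

lemma sg_eq_neg {a : ZMod 2} (h : a ≠ 0) : sg a = -1 := by
  rcases zmod2_cases a with rfl | rfl
  · exact absurd rfl h
  · rfl

section basics

variable {U : Type*} [AddCommGroup U] [Module (ZMod 2) U]

lemma char2 (u : U) : u + u = 0 := by
  have h : (2 : ZMod 2) • u = 0 := by
    have : (2 : ZMod 2) = 0 := by decide
    rw [this, zero_smul]
  rw [two_smul] at h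
  exact h

lemma eq_add_iff (x y u : U) : y = x + u ↔ x = y + u := by
  constructor
  · rintro rfl
    rw [add_assoc, char2, add_zero]
  · rintro rfl
    rw [add_assoc, char2, add_zero]

end basics

section matrices

variable {U : Type*} [AddCommGroup U] [Module (ZMod 2) U] [Fintype U] [DecidableEq U]

variable (β : U →ₗ[ZMod 2] U →ₗ[ZMod 2] ZMod 2)

/-- The twisted translation matrices. -/
noncomputable def E (u : U) : Matrix U U ℝ :=
  Matrix.of fun x y => if y = x + u then sg (β x u) else 0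

lemma E_apply (u x y : U) : E β u x y = if y = x + u then sg (β x u) else 0 := rfl

lemma E_zero : E β 0 = 1 := by
  ext x y
  rw [E_apply, Matrix.one_apply]
  simp only [add_zero, map_zero, sg_zero]
  by_cases h : x = y
  · subst h
    simp
  · rw [if_neg (Ne.symm h), if_neg h]

lemma E_row_zero (u y : U) : E β u 0 y = if y = u then 1 else 0 := by
  rw [E_apply]
  simp

lemma E_mul (u v : U) : E β u * E β v = sg (β u v) • E β (u + v) := by
  ext x y
  rw [Matrix.mul_apply, Matrix.smul_apply, E_apply, smul_eq_mul]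
  rw [Finset.sum_eq_single (x + u)]
  · rw [E_apply, E_apply, if_pos rfl, ← add_assoc]
    by_cases h : y = x + u + v
    · rw [if_pos h, if_pos h]
      simp only [map_add, LinearMap.add_apply, sg_add]
      have := sg_sq (β x u)
      ring
    · rw [if_neg h, if_neg h]
      simp
  · intro z _ hz
    rw [E_apply, if_neg hz, zero_mul]
  · intro h
    exact absurd (Finset.mem_univ _) h

lemma E_transpose (u : U) : (E β u)ᵀ = sg (β u u) • E β u := by
  ext x y
  rw [Matrix.transpose_apply, Matrix.smul_apply, E_apply, E_apply, smul_eq_mul]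
  by_cases h : x = y + u
  · have h' : y = x + u := (eq_add_iff x y u).2 h
    rw [if_pos h, if_pos h', h]
    simp only [map_add, LinearMap.add_apply, sg_add]
    have := sg_sq (β u u)
    calc sg (β y u) = sg (β y u) * (sg (β u u) * sg (β u u)) := by rw [this, mul_one]
      _ = _ := by ring
  · have h' : ¬ y = x + u := fun e => h ((eq_add_iff x y u).1 e)
    rw [if_neg h, if_neg h']
    simp

lemma E_sq (u : U) : E β u * E β u = sg (β u u) • 1 := by
  rw [E_mul, char2, E_zero]

lemma E_E_transpose (u : U) : E β u * (E β u)ᵀ = 1 := by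
  rw [E_transpose, Matrix.mul_smul, E_sq, smul_smul, sg_sq, one_smul]

lemma E_transpose_E (u : U) : (E β u)ᵀ * E β u = 1 := by
  rw [E_transpose, Matrix.smul_mul, E_sq, smul_smul, sg_sq, one_smul]

lemma E_comm (u v : U) : E β u * E β v = sg (β u v + β v u) • (E β v * E β u) := by
  rw [E_mul, E_mul, smul_smul, sg_add, mul_assoc, sg_sq, mul_one, add_comm u v]

/-- The algebra spanned by the `E u`. -/
noncomputable def M : Submodule ℝ (Matrix U U ℝ) := Submodule.span ℝ (Set.range (E β))

lemma E_mem (u : U) : E β u ∈ M β := Submodule.subset_span ⟨u, rfl⟩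

lemma M_mul {S T : Matrix U U ℝ} (hS : S ∈ M β) (hT : T ∈ M β) : S * T ∈ M β := by
  induction hS using Submodule.span_induction with
  | mem x hx =>
    obtain ⟨u, rfl⟩ := hx
    induction hT using Submodule.span_induction with
    | mem y hy =>
      obtain ⟨v, rfl⟩ := hy
      rw [E_mul]
      exact Submodule.smul_mem _ _ (E_mem β _)
    | zero => simp
    | add x y _ _ hx hy =>
      rw [Matrix.mul_add]
      exact Submodule.add_mem _ hx hy
    | smul a x _ hx =>
      rw [Matrix.mul_smul]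
      exact Submodule.smul_mem _ _ hx
  | zero => simp
  | add x y _ _ hx hy =>
    rw [Matrix.add_mul]
    exact Submodule.add_mem _ hx hy
  | smul a x _ hx =>
    rw [Matrix.smul_mul]
    exact Submodule.smul_mem _ _ hx

lemma M_transpose {T : Matrix U U ℝ} (hT : T ∈ M β) : Tᵀ ∈ M β := by
  induction hT using Submodule.span_induction with
  | mem x hx =>
    obtain ⟨u, rfl⟩ := hx
    rw [E_transpose]
    exact Submodule.smul_mem _ _ (E_mem β _)
  | zero => simp
  | add x y _ _ hx hy =>
    rw [Matrix.transpose_add]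
    exact Submodule.add_mem _ hx hy
  | smul a x _ hx =>
    rw [Matrix.transpose_smul]
    exact Submodule.smul_mem _ _ hx

lemma M_one : (1 : Matrix U U ℝ) ∈ M β := by
  rw [← E_zero β]
  exact E_mem β 0

lemma coef_sum (c : U → ℝ) (y : U) : (∑ v, c v • E β v) 0 y = c y := by
  rw [Matrix.sum_apply]
  simp only [Matrix.smul_apply, E_row_zero, smul_eq_mul]
  rw [Finset.sum_eq_single y]
  · simp
  · intro b _ hb
    rw [if_neg (Ne.symm hb), mul_zero]
  · intro h
    exact absurd (Finset.mem_univ _) h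

lemma M_eq_sum {T : Matrix U U ℝ} (hT : T ∈ M β) : T = ∑ v, (T 0 v) • E β v := by
  obtain ⟨c, hc⟩ := (Submodule.mem_span_range_iff_exists_fun ℝ).1 hT
  rw [← hc]
  congr 1
  funext v
  rw [coef_sum]

variable (hnd : ∀ v : U, v ≠ 0 → ∃ u : U, β u v + β v u ≠ 0)

include hnd in
/-- An element of the algebra commuting with all `E u` is scalar. -/
lemma scalar_of_comm {T : Matrix U U ℝ} (hT : T ∈ M β) (hc : ∀ u, E β u * T = T * E β u) :
    T = (T 0 0) • 1 := by
  have h1 : ∀ y, y ≠ 0 → T 0 y = 0 := by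
    intro y hy
    obtain ⟨u, hu⟩ := hnd y hy
    have h2 : E β u * T * (E β u)ᵀ = T := by
      rw [hc, Matrix.mul_assoc, E_E_transpose, Matrix.mul_one]
    have h3 : T = ∑ v, (T 0 v * sg (β u v + β v u)) • E β v := by
      conv_lhs => rw [← h2, M_eq_sum β hT]
      rw [Matrix.mul_sum, Matrix.sum_mul]
      apply Finset.sum_congr rfl
      intro v _
      rw [Matrix.mul_smul, Matrix.smul_mul, mul_smul]
      congr 1
      rw [E_comm, Matrix.smul_mul, Matrix.mul_assoc, E_E_transpose, Matrix.mul_one]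
    have h4 := coef_sum β (fun v => T 0 v * sg (β u v + β v u)) y
    rw [← h3] at h4
    rw [sg_eq_neg hu] at h4
    linarith
  conv_lhs => rw [M_eq_sum β hT]
  rw [Finset.sum_eq_single 0]
  · rw [E_zero]
  · intro v _ hv
    rw [h1 v hv, zero_smul]
  · intro h
    exact absurd (Finset.mem_univ _) h

section exists_T

variable (g : U →ₗ[ZMod 2] U) (hg : ∀ u, β (g u) (g u) = β u u)
variable (f : U → ZMod 2) (hf : ∀ u v, f (u + v) = f u + f v + (β (g u) (g v) + β u v))

/-- The averaging operator. -/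
noncomputable def Sa (A : Matrix U U ℝ) : Matrix U U ℝ :=
  ∑ u, sg (f u) • (E β (g u) * A * (E β u)ᵀ)

include hf in
lemma Sa_rel (A : Matrix U U ℝ) (v : U) :
    E β (g v) * Sa β g f A * (E β v)ᵀ = sg (f v) • Sa β g f A := by
  unfold Sa
  rw [Matrix.mul_sum, Matrix.sum_mul, Finset.smul_sum]
  rw [← Equiv.sum_comp (Equiv.addLeft v) (fun u => sg (f v) • sg (f u) • (E β (g u) * A * (E β u)ᵀ))]
  apply Finset.sum_congr rfl
  intro u _
  simp only [Equiv.coe_addLeft]
  have e1 : E β (g v) * E β (g u) = sg (β (g v) (g u)) • E β (g (v + u)) := by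
    rw [E_mul, map_add]
  have e2 : (E β u)ᵀ * (E β v)ᵀ = sg (β v u) • (E β (v + u))ᵀ := by
    rw [← Matrix.transpose_mul, E_mul, Matrix.transpose_smul]
  have e3 : sg (f (v + u)) = sg (f v) * sg (f u) * (sg (β (g v) (g u)) * sg (β v u)) := by
    rw [hf, sg_add, sg_add, sg_add]
  calc E β (g v) * (sg (f u) • (E β (g u) * A * (E β u)ᵀ)) * (E β v)ᵀ
      = sg (f u) • ((E β (g v) * E β (g u)) * A * ((E β u)ᵀ * (E β v)ᵀ)) := by
        rw [Matrix.mul_smul, Matrix.smul_mul]
        simp only [Matrix.mul_assoc]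
    _ = sg (f v) • sg (f (v + u)) • (E β (g (v + u)) * A * (E β (v + u))ᵀ) := by
        rw [e1, e2, e3]
        simp only [Matrix.smul_mul, Matrix.mul_smul, smul_smul]
        congr 1
        have h1 := sg_sq (f v)
        linear_combination (-(sg (f u) * (sg (β v u) * sg (β (g v) (g u))))) * h1

include hf in
lemma f_zero : f 0 = 0 := by
  have h := hf 0 0
  simp only [add_zero, map_zero, LinearMap.zero_apply] at h
  have h2 : f 0 + f 0 = 0 := CharTwo.add_self_eq_zero _
  rw [h2] at h
  exact h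

include hnd in
lemma sum_sg_polar (u : U) (hu : u ≠ 0) : ∑ a, sg (β u a + β a u) = 0 := by
  obtain ⟨w, hw⟩ := hnd u hu
  have h1 : ∑ a, sg (β u (a + w) + β (a + w) u) = ∑ a, sg (β u a + β a u) :=
    Equiv.sum_comp (Equiv.addRight w) (fun a => sg (β u a + β a u))
  have h2 : ∀ a, sg (β u (a + w) + β (a + w) u) = - sg (β u a + β a u) := by
    intro a
    have e : β u (a + w) + β (a + w) u = (β u a + β a u) + (β w u + β u w) := by
      simp only [map_add, LinearMap.add_apply]
      ring
    rw [e, sg_add, sg_eq_neg hw]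
    ring
  simp only [h2, Finset.sum_neg_distrib] at h1
  linarith

include hg hf hnd in
lemma exists_ne_zero : ∃ a, Sa β g f (E β a) ≠ 0 := by
  have h0 : ∑ a, (Sa β g f (E β a)) 0 a = (Fintype.card U : ℝ) := by
    have h1 : ∀ a, (Sa β g f (E β a)) 0 a =
        ∑ u, if g u = u then sg (f u) * sg (β u a + β a u) else 0 := by
      intro a
      unfold Sa
      rw [Matrix.sum_apply]
      apply Finset.sum_congr rfl
      intro u _
      have e1 : E β (g u) * E β a * (E β u)ᵀ =
          (sg (β (g u) a) * sg (β u u) * sg (β (g u + a) u)) • E β (g u + a + u) := by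
        rw [E_mul, E_transpose, Matrix.smul_mul, Matrix.mul_smul, E_mul]
        simp only [smul_smul, mul_assoc]
      rw [Matrix.smul_apply, e1, Matrix.smul_apply, E_row_zero, smul_eq_mul, smul_eq_mul]
      by_cases hu : g u = u
      · rw [if_pos hu, hu]
        have e2 : a = u + a + u := by
          rw [add_comm u a, add_assoc, char2, add_zero]
        rw [if_pos e2, mul_one]
        simp only [map_add, LinearMap.add_apply, sg_add]
        have h3 := sg_sq (β u u)
        congr 1
        calc sg (β u a) * sg (β u u) * (sg (β u u) * sg (β a u))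
            = (sg (β u u) * sg (β u u)) * (sg (β u a) * sg (β a u)) := by ring
          _ = _ := by rw [h3, one_mul]
      · rw [if_neg hu]
        have e2 : ¬ a = g u + a + u := by
          intro h
          apply hu
          have h4 : g u + u = 0 := by
            have : g u + a + u = a + (g u + u) := by abel
            rw [this] at h
            exact (add_eq_left.mp h.symm)
          have h5 : g u = g u + (u + u) := by rw [char2, add_zero]
          rw [h5, ← add_assoc, h4, zero_add]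
        rw [if_neg e2, mul_zero, mul_zero]
    simp only [h1]
    rw [Finset.sum_comm]
    rw [Finset.sum_eq_single (0 : U)]
    · simp [f_zero β g f hf]
    · intro u _ hu
      by_cases hgu : g u = u
      · simp only [if_pos hgu]
        rw [← Finset.mul_sum, sum_sg_polar β hnd u hu, mul_zero]
      · simp [if_neg hgu]
    · intro h
      exact absurd (Finset.mem_univ _) h
  by_contra hcon
  push Not at hcon
  have h1 : ∑ a, (Sa β g f (E β a)) 0 a = 0 := by
    apply Finset.sum_eq_zero
    intro a _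
    rw [hcon a]
    rfl
  rw [h1] at h0
  have : (0 : ℝ) < Fintype.card U := by
    exact_mod_cast Fintype.card_pos
  linarith

lemma Sa_mem (a : U) : Sa β g f (E β a) ∈ M β := by
  unfold Sa
  apply Submodule.sum_mem
  intro u _
  apply Submodule.smul_mem
  exact M_mul β (M_mul β (E_mem β _) (E_mem β _)) (M_transpose β (E_mem β _))

include hg hf hnd in
/-- Every isometry is induced by an orthogonal element of the algebra. -/
theorem exists_T : ∃ T ∈ M β, T * Tᵀ = 1 ∧ ∀ v, T * E β v * Tᵀ = sg (f v) • E β (g v) := by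
  obtain ⟨a, ha⟩ := exists_ne_zero β hnd g hg f hf
  set T₀ := Sa β g f (E β a) with hT₀
  have hmem : T₀ ∈ M β := Sa_mem β g f a
  have hrel : ∀ v, E β (g v) * T₀ * (E β v)ᵀ = sg (f v) • T₀ := fun v => Sa_rel β g f hf _ v
  have hrel' : ∀ v, E β v * T₀ᵀ * (E β (g v))ᵀ = sg (f v) • T₀ᵀ := by
    intro v
    have := congrArg Matrix.transpose (hrel v)
    simp only [Matrix.transpose_mul, Matrix.transpose_transpose, Matrix.transpose_smul] at this
    rw [← this]
    simp only [Matrix.mul_assoc]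
  set X := T₀ᵀ * T₀ with hX
  have hXmem : X ∈ M β := M_mul β (M_transpose β hmem) hmem
  have hcomm : ∀ v, E β v * X = X * E β v := by
    intro v
    have h1 : E β v * X * (E β v)ᵀ = X := by
      calc E β v * X * (E β v)ᵀ
          = (E β v * T₀ᵀ * (E β (g v))ᵀ) * (E β (g v) * T₀ * (E β v)ᵀ) := by
            have : (E β (g v))ᵀ * E β (g v) = 1 := E_transpose_E β _
            calc E β v * X * (E β v)ᵀ = E β v * T₀ᵀ * 1 * T₀ * (E β v)ᵀ := by
                  rw [hX]
                  simp only [Matrix.mul_one, Matrix.mul_assoc]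
              _ = _ := by
                  rw [← this]
                  simp only [Matrix.mul_assoc]
        _ = X := by
            rw [hrel, hrel', Matrix.smul_mul, Matrix.mul_smul, smul_smul, sg_sq, one_smul]
    calc E β v * X = E β v * X * ((E β v)ᵀ * E β v) := by rw [E_transpose_E, Matrix.mul_one]
      _ = (E β v * X * (E β v)ᵀ) * E β v := by simp only [Matrix.mul_assoc]
      _ = X * E β v := by rw [h1]
  have hsc := scalar_of_comm β hnd hXmem hcomm
  set c := X 0 0 with hc
  have hdiag : ∀ y, ∑ x, (T₀ x y) ^ 2 = c := by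
    intro y
    have h1 : X y y = c := by
      conv_lhs => rw [hsc]
      simp
    rw [← h1, hX, Matrix.mul_apply]
    apply Finset.sum_congr rfl
    intro x _
    rw [Matrix.transpose_apply, pow_two]
  have hcpos : 0 < c := by
    have : ∃ x y, T₀ x y ≠ 0 := by
      by_contra hcon
      push Not at hcon
      apply ha
      ext x y
      exact hcon x y
    obtain ⟨x, y, hxy⟩ := this
    rw [← hdiag y]
    apply Finset.sum_pos'
    · intro i _
      positivity
    · exact ⟨x, Finset.mem_univ _, by positivity⟩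
  set r := Real.sqrt c with hr
  have hr0 : r ≠ 0 := (Real.sqrt_pos.mpr hcpos).ne'
  have hrr : r * r = c := Real.mul_self_sqrt hcpos.le
  set T := r⁻¹ • T₀ with hT
  have hTT : Tᵀ * T = 1 := by
    rw [hT, Matrix.transpose_smul, Matrix.smul_mul, Matrix.mul_smul, ← hX, hsc, smul_smul, smul_smul]
    have : r⁻¹ * r⁻¹ * c = 1 := by
      rw [← hrr]
      field_simp
    rw [this, one_smul]
  have hTT' : T * Tᵀ = 1 := mul_eq_one_comm.mp hTT
  refine ⟨T, Submodule.smul_mem _ _ hmem, hTT', ?_⟩
  intro v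
  have h1 : E β v * Tᵀ * (E β (g v))ᵀ = sg (f v) • Tᵀ := by
    rw [hT, Matrix.transpose_smul, Matrix.mul_smul, Matrix.smul_mul, hrel', smul_comm]
  have h2 : E β v * Tᵀ = sg (f v) • (Tᵀ * E β (g v)) := by
    calc E β v * Tᵀ = E β v * Tᵀ * ((E β (g v))ᵀ * E β (g v)) := by rw [E_transpose_E, Matrix.mul_one]
      _ = (E β v * Tᵀ * (E β (g v))ᵀ) * E β (g v) := by simp only [Matrix.mul_assoc]
      _ = _ := by rw [h1, Matrix.smul_mul]
  calc T * E β v * Tᵀ = T * (E β v * Tᵀ) := by rw [Matrix.mul_assoc]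
    _ = sg (f v) • ((T * Tᵀ) * E β (g v)) := by
      rw [h2, Matrix.mul_smul, Matrix.mul_assoc]
    _ = _ := by rw [hTT', Matrix.one_mul]

end exists_T

/-- Existence of the sign function. -/
lemma exists_f (g : U →ₗ[ZMod 2] U) (hg : ∀ u, β (g u) (g u) = β u u) :
    ∃ f : U → ZMod 2, ∀ u v, f (u + v) = f u + f v + (β (g u) (g v) + β u v) := by
  classical
  let δ : U →ₗ[ZMod 2] U →ₗ[ZMod 2] ZMod 2 := β.compl₁₂ g g + β
  have hδ : ∀ u v, δ u v = β (g u) (g v) + β u v := fun u v => rfl
  have hδ0 : ∀ u, δ u u = 0 := by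
    intro u
    rw [hδ, hg]
    exact CharTwo.add_self_eq_zero _
  have hsym : ∀ u v, δ u v = δ v u := by
    intro u v
    have h := hδ0 (u + v)
    simp only [map_add, LinearMap.add_apply, hδ0, zero_add, add_zero] at h
    have h2 : δ u v + δ u v = 0 := CharTwo.add_self_eq_zero _
    rw [add_comm (δ v u)] at h
    exact add_left_cancel (h2.trans h.symm)
  let b := Module.finBasis (ZMod 2) U
  let γ : U →ₗ[ZMod 2] U →ₗ[ZMod 2] ZMod 2 :=
    b.constr (ZMod 2) fun i => b.constr (ZMod 2) fun j => if i < j then δ (b i) (b j) else 0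
  have hγ : ∀ i j, γ (b i) (b j) = if i < j then δ (b i) (b j) else 0 := by
    intro i j
    have e1 : γ (b i) = b.constr (ZMod 2) fun j => if i < j then δ (b i) (b j) else 0 :=
      b.constr_basis (ZMod 2) _ i
    rw [e1, b.constr_basis]
  have key : γ + γ.flip = δ := by
    apply b.ext
    intro i
    apply b.ext
    intro j
    simp only [LinearMap.add_apply, LinearMap.flip_apply, hγ]
    rcases lt_trichotomy i j with h | h | h
    · rw [if_pos h, if_neg (not_lt.mpr h.le), add_zero]
    · subst h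
      simp [hδ0]
    · rw [if_neg (not_lt.mpr h.le), if_pos h, zero_add, hsym]
  refine ⟨fun u => γ u u, ?_⟩
  intro u v
  have h := congrArg (fun d => d u v) key
  simp only [LinearMap.add_apply, LinearMap.flip_apply] at h
  rw [← hδ, ← h]
  simp only [map_add, LinearMap.add_apply]
  ring


section group

variable {K : Type*} [Group K] (ρ : Representation (ZMod 2) K U)

/-- The group: pairs `(k, T)` with `T` an orthogonal element of the algebra inducing `ρ k`. -/
noncomputable def RR : Subgroup (K × (Matrix U U ℝ)ˣ) where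
  carrier := {p | (p.2 : Matrix U U ℝ) ∈ M β ∧ (p.2 : Matrix U U ℝ) * (p.2 : Matrix U U ℝ)ᵀ = 1 ∧
    ∀ u, ∃ z : ZMod 2, (p.2 : Matrix U U ℝ) * E β u * (p.2 : Matrix U U ℝ)ᵀ = sg z • E β (ρ p.1 u)}
  mul_mem' := by
    rintro ⟨k, S⟩ ⟨l, T⟩ ⟨h1, h2, h3⟩ ⟨h4, h5, h6⟩
    simp only [Set.mem_setOf_eq] at *
    refine ⟨?_, ?_, ?_⟩
    · rw [Prod.snd_mul, Units.val_mul]
      exact M_mul β h1 h4
    · rw [Prod.snd_mul, Units.val_mul, Matrix.transpose_mul]
      calc (S : Matrix U U ℝ) * T * ((T : Matrix U U ℝ)ᵀ * (S : Matrix U U ℝ)ᵀ)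
          = S * (T * (T : Matrix U U ℝ)ᵀ) * (S : Matrix U U ℝ)ᵀ := by simp only [Matrix.mul_assoc]
        _ = 1 := by rw [h5, Matrix.mul_one, h2]
    · intro u
      obtain ⟨z, hz⟩ := h6 u
      obtain ⟨z', hz'⟩ := h3 (ρ l u)
      refine ⟨z + z', ?_⟩
      rw [Prod.snd_mul, Prod.fst_mul, Units.val_mul, Matrix.transpose_mul, map_mul]
      calc (S : Matrix U U ℝ) * T * E β u * ((T : Matrix U U ℝ)ᵀ * (S : Matrix U U ℝ)ᵀ)
          = S * (T * E β u * (T : Matrix U U ℝ)ᵀ) * (S : Matrix U U ℝ)ᵀ := by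
            simp only [Matrix.mul_assoc]
        _ = sg (z + z') • E β ((ρ k * ρ l) u) := by
            rw [hz, Matrix.mul_smul, Matrix.smul_mul, hz', smul_smul, sg_add]
            rfl
  one_mem' := by
    refine ⟨?_, ?_, ?_⟩
    · exact M_one β
    · simp
    · intro u
      exact ⟨0, by simp⟩
  inv_mem' := by
    rintro ⟨k, T⟩ ⟨h1, h2, h3⟩
    simp only [Set.mem_setOf_eq] at *
    have hinv : (((T⁻¹ : (Matrix U U ℝ)ˣ) : Matrix U U ℝ)) = (T : Matrix U U ℝ)ᵀ :=
      Units.inv_eq_of_mul_eq_one_right h2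
    have h2' : (T : Matrix U U ℝ)ᵀ * T = 1 := mul_eq_one_comm.mp h2
    refine ⟨?_, ?_, ?_⟩
    · rw [Prod.snd_inv, hinv]
      exact M_transpose β h1
    · rw [Prod.snd_inv, hinv, Matrix.transpose_transpose]
      exact h2'
    · intro u
      obtain ⟨z, hz⟩ := h3 (ρ k⁻¹ u)
      refine ⟨z, ?_⟩
      rw [Prod.snd_inv, hinv, Prod.fst_inv, Matrix.transpose_transpose]
      have e : ρ k (ρ k⁻¹ u) = u := by
        rw [← Module.End.mul_apply, ← map_mul, mul_inv_cancel, map_one, Module.End.one_apply]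
      rw [e] at hz
      have h5 : E β (ρ k⁻¹ u) = sg z • ((T : Matrix U U ℝ)ᵀ * E β u * T) := by
        calc E β (ρ k⁻¹ u) = ((T : Matrix U U ℝ)ᵀ * T) * E β (ρ k⁻¹ u) * ((T : Matrix U U ℝ)ᵀ * T) := by
              rw [h2', Matrix.one_mul, Matrix.mul_one]
          _ = (T : Matrix U U ℝ)ᵀ * (T * E β (ρ k⁻¹ u) * (T : Matrix U U ℝ)ᵀ) * T := by
              simp only [Matrix.mul_assoc]
          _ = _ := by
              rw [hz, Matrix.mul_smul, Matrix.smul_mul]
      rw [h5, smul_smul, sg_sq, one_smul]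

/-- The unit attached to a vector and a sign. -/
noncomputable def Eu (v : U) (z : ZMod 2) : (Matrix U U ℝ)ˣ where
  val := sg z • E β v
  inv := sg z • (E β v)ᵀ
  val_inv := by
    rw [Matrix.smul_mul, Matrix.mul_smul, E_E_transpose, smul_smul, sg_sq, one_smul]
  inv_val := by
    rw [Matrix.smul_mul, Matrix.mul_smul, E_transpose_E, smul_smul, sg_sq, one_smul]

lemma conj_E (v u : U) : E β v * E β u * (E β v)ᵀ = sg (β v u + β u v) • E β u := by
  rw [E_comm, Matrix.smul_mul, Matrix.mul_assoc, E_E_transpose, Matrix.mul_one]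

/-- The elements of the kernel. -/
noncomputable def el (v : U) (z : ZMod 2) : RR β ρ :=
  ⟨(1, Eu β v z), by
    refine ⟨Submodule.smul_mem _ _ (E_mem β v), ?_, ?_⟩
    · show (sg z • E β v) * (sg z • E β v)ᵀ = 1
      rw [Matrix.transpose_smul, Matrix.smul_mul, Matrix.mul_smul, E_E_transpose, smul_smul, sg_sq,
        one_smul]
    · intro u
      refine ⟨β v u + β u v, ?_⟩
      show (sg z • E β v) * E β u * (sg z • E β v)ᵀ = sg (β v u + β u v) • E β ((ρ 1) u)
      rw [Matrix.transpose_smul, Matrix.smul_mul, Matrix.smul_mul, Matrix.mul_smul, conj_E, smul_smul,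
        sg_sq, one_smul, map_one, Module.End.one_apply]⟩

lemma el_val (v : U) (z : ZMod 2) : (((el β ρ v z).1.2 : (Matrix U U ℝ)ˣ) : Matrix U U ℝ) = sg z • E β v :=
  rfl

lemma el_fst (v : U) (z : ZMod 2) : (el β ρ v z).1.1 = 1 := rfl

lemma el_ext {a b : RR β ρ} (h1 : a.1.1 = b.1.1)
    (h2 : ((a.1.2 : (Matrix U U ℝ)ˣ) : Matrix U U ℝ) = b.1.2) : a = b := by
  apply Subtype.ext
  apply Prod.ext h1
  exact Units.ext h2

lemma el_mul (v v' : U) (z z' : ZMod 2) :
    el β ρ v z * el β ρ v' z' = el β ρ (v + v') (z + z' + β v v') := by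
  apply el_ext
  · show (1 : K) * 1 = 1
    rw [one_mul]
  · show (sg z • E β v) * (sg z' • E β v') = sg (z + z' + β v v') • E β (v + v')
    rw [Matrix.smul_mul, Matrix.mul_smul, E_mul, smul_smul, smul_smul, sg_add, sg_add]

lemma el_one : el β ρ (0 : U) 0 = 1 := by
  apply el_ext
  · rfl
  · show sg 0 • E β 0 = 1
    rw [E_zero, sg_zero, one_smul]

lemma el_inj {v v' : U} {z z' : ZMod 2} (h : el β ρ v z = el β ρ v' z') : v = v' ∧ z = z' := by
  have h1 : sg z • E β v = sg z' • E β v' := by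
    rw [← el_val β ρ, ← el_val β ρ, h]
  have h2 := congrFun (congrFun h1 0) v
  rw [Matrix.smul_apply, Matrix.smul_apply, E_row_zero, E_row_zero, if_pos rfl] at h2
  have hv : v = v' := by
    by_contra hne
    rw [if_neg hne] at h2
    simp only [smul_eq_mul, mul_one, mul_zero] at h2
    exact sg_ne_zero z h2
  subst hv
  rw [if_pos rfl] at h2
  simp only [smul_eq_mul, mul_one] at h2
  exact ⟨rfl, sg_inj h2⟩

variable [Module.Finite (ZMod 2) U]

include hnd in
/-- Every linear functional is a polar functional. -/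
lemma exists_polar (ℓ : U →ₗ[ZMod 2] ZMod 2) : ∃ v, ∀ u, ℓ u = β v u + β u v := by
  let Ψ : U →ₗ[ZMod 2] (U →ₗ[ZMod 2] ZMod 2) := β + β.flip
  have hΨ : ∀ v u, Ψ v u = β v u + β u v := fun v u => rfl
  have hinj : Function.Injective Ψ := by
    rw [injective_iff_map_eq_zero]
    intro v hv
    by_contra hne
    obtain ⟨u, hu⟩ := hnd v hne
    apply hu
    have := congrArg (fun d => d u) hv
    simp only [hΨ, LinearMap.zero_apply] at this
    rw [add_comm]
    exact this
  have hsurj : Function.Surjective Ψ := by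
    apply (LinearMap.injective_iff_surjective_of_finrank_eq_finrank _).mp hinj
    rw [Module.finrank_linearMap]
    simp
  obtain ⟨v, hv⟩ := hsurj ℓ
  exact ⟨v, fun u => by rw [← hv, hΨ]⟩

include hnd in
/-- Structure of the kernel. -/
lemma el_surj (a : RR β ρ) (ha : a.1.1 = 1) : ∃ v z, a = el β ρ v z := by
  obtain ⟨⟨k, T⟩, h1, h2, h3⟩ := a
  simp only at ha
  subst ha
  simp only [map_one, Module.End.one_apply] at h3
  have h2' : (T : Matrix U U ℝ)ᵀ * T = 1 := mul_eq_one_comm.mp h2
  choose z hz using h3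
  have hEne : ∀ u, E β u ≠ 0 := by
    intro u h
    have := congrFun (congrFun h 0) u
    rw [E_row_zero, if_pos rfl] at this
    exact one_ne_zero this
  have hadd : ∀ u v, z (u + v) = z u + z v := by
    intro u v
    have h4 : (T : Matrix U U ℝ) * (E β u * E β v) * (T : Matrix U U ℝ)ᵀ =
        (T * E β u * (T : Matrix U U ℝ)ᵀ) * (T * E β v * (T : Matrix U U ℝ)ᵀ) := by
      calc (T : Matrix U U ℝ) * (E β u * E β v) * (T : Matrix U U ℝ)ᵀ
          = T * E β u * ((T : Matrix U U ℝ)ᵀ * T) * E β v * (T : Matrix U U ℝ)ᵀ := by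
            rw [h2', Matrix.mul_one]
            simp only [Matrix.mul_assoc]
        _ = _ := by simp only [Matrix.mul_assoc]
    rw [hz, hz, E_mul, Matrix.mul_smul, Matrix.smul_mul, hz, Matrix.smul_mul, Matrix.mul_smul,
      E_mul, smul_smul, smul_smul, smul_smul] at h4
    have h5 : sg (z (u + v)) * sg (β u v) = sg (z u) * sg (z v) * sg (β u v) := by
      have h6 := congrFun (congrFun h4 0) (u + v)
      simp only [Matrix.smul_apply, E_row_zero, if_true, smul_eq_mul, mul_one] at h6
      linarith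
    have h7 : sg (z (u + v)) = sg (z u + z v) := by
      rw [sg_add]
      exact mul_right_cancel₀ (sg_ne_zero _) (by rw [h5])
    exact sg_inj h7
  let ℓ : U →+ ZMod 2 := AddMonoidHom.mk' z hadd
  obtain ⟨v₀, hv₀⟩ := exists_polar β hnd (ℓ.toZModLinearMap 2)
  have hv₀' : ∀ u, z u = β v₀ u + β u v₀ := hv₀
  set T' : Matrix U U ℝ := (T : Matrix U U ℝ) * (E β v₀)ᵀ with hT'
  have hmem : T' ∈ M β := M_mul β h1 (M_transpose β (E_mem β v₀))
  have hT't : T'ᵀ * T' = 1 := by
    rw [hT', Matrix.transpose_mul, Matrix.transpose_transpose]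
    calc E β v₀ * (T : Matrix U U ℝ)ᵀ * (T * (E β v₀)ᵀ)
        = E β v₀ * ((T : Matrix U U ℝ)ᵀ * T) * (E β v₀)ᵀ := by simp only [Matrix.mul_assoc]
      _ = 1 := by rw [h2', Matrix.mul_one, E_E_transpose]
  have hT't' : T' * T'ᵀ = 1 := mul_eq_one_comm.mp hT't
  have hcomm : ∀ u, E β u * T' = T' * E β u := by
    intro u
    have h5 : T' * E β u * T'ᵀ = E β u := by
      rw [hT', Matrix.transpose_mul, Matrix.transpose_transpose]
      calc (T : Matrix U U ℝ) * (E β v₀)ᵀ * E β u * (E β v₀ * (T : Matrix U U ℝ)ᵀ)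
          = T * ((E β v₀)ᵀ * E β u * E β v₀) * (T : Matrix U U ℝ)ᵀ := by
            simp only [Matrix.mul_assoc]
        _ = _ := by
            have e : (E β v₀)ᵀ * E β u * E β v₀ = sg (β v₀ u + β u v₀) • E β u := by
              rw [Matrix.mul_assoc, E_comm, Matrix.mul_smul, ← Matrix.mul_assoc, E_transpose_E,
                Matrix.one_mul, add_comm]
            rw [e, Matrix.mul_smul, Matrix.smul_mul, hz, smul_smul, hv₀', sg_sq, one_smul]
    calc E β u * T' = (T' * E β u * T'ᵀ) * T' := by rw [h5]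
      _ = T' * E β u * (T'ᵀ * T') := by simp only [Matrix.mul_assoc]
      _ = _ := by rw [hT't, Matrix.mul_one]
  have hsc := scalar_of_comm β hnd hmem hcomm
  set c := T' 0 0 with hc
  have hcc : c * c = 1 := by
    have h6 := congrFun (congrFun hT't 0) 0
    rw [hsc] at h6
    simp only [Matrix.transpose_smul, Matrix.smul_mul, Matrix.mul_smul, Matrix.transpose_one,
      Matrix.mul_one, Matrix.smul_apply, Matrix.one_apply, if_true, smul_eq_mul, mul_one] at h6
    exact h6
  have hcs : ∃ w : ZMod 2, c = sg w := by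
    have : (c - 1) * (c + 1) = 0 := by linear_combination hcc
    rcases mul_eq_zero.mp this with h | h
    · exact ⟨0, by rw [sg_zero]; linarith⟩
    · exact ⟨1, by rw [sg_one]; linarith⟩
  obtain ⟨w, hw⟩ := hcs
  refine ⟨v₀, w, ?_⟩
  apply el_ext
  · rfl
  · show (T : Matrix U U ℝ) = sg w • E β v₀
    calc (T : Matrix U U ℝ) = T * ((E β v₀)ᵀ * E β v₀) := by rw [E_transpose_E, Matrix.mul_one]
      _ = T' * E β v₀ := by rw [hT', Matrix.mul_assoc]
      _ = sg w • E β v₀ := by
        rw [hsc, hw, Matrix.smul_mul, Matrix.one_mul]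

/-- The projection to `K`. -/
noncomputable def piK : RR β ρ →* K := (MonoidHom.fst K _).comp (RR β ρ).subtype

lemma piK_apply (a : RR β ρ) : piK β ρ a = a.1.1 := rfl

lemma mem_ker_piK (a : RR β ρ) : a ∈ (piK β ρ).ker ↔ a.1.1 = 1 := MonoidHom.mem_ker

include hnd in
lemma piK_surjective (hq : ∀ (k : K) (u : U), β (ρ k u) (ρ k u) = β u u) :
    Function.Surjective (piK β ρ) := by
  intro k
  obtain ⟨f, hf⟩ := exists_f β (ρ k) (hq k)
  obtain ⟨T, h1, h2, h3⟩ := exists_T β hnd (ρ k) (hq k) f hf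
  have h2' : Tᵀ * T = 1 := mul_eq_one_comm.mp h2
  let u : (Matrix U U ℝ)ˣ := ⟨T, Tᵀ, h2, h2'⟩
  exact ⟨⟨(k, u), h1, h2, fun v => ⟨f v, h3 v⟩⟩, rfl⟩

include hnd in
lemma exists_el (a : (piK β ρ).ker) : ∃ p : U × ZMod 2, a.1 = el β ρ p.1 p.2 := by
  obtain ⟨v, z, h⟩ := el_surj β hnd ρ a.1 ((mem_ker_piK β ρ _).1 a.2)
  exact ⟨(v, z), h⟩

/-- The coordinates on the kernel. -/
noncomputable def coord (hnd : ∀ v : U, v ≠ 0 → ∃ u : U, β u v + β v u ≠ 0)
    (a : (piK β ρ).ker) : U × ZMod 2 := (exists_el β hnd ρ a).choose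

lemma coord_spec (a : (piK β ρ).ker) : a.1 = el β ρ (coord β ρ hnd a).1 (coord β ρ hnd a).2 :=
  (exists_el β hnd ρ a).choose_spec

lemma coord_eq (a : (piK β ρ).ker) (v : U) (z : ZMod 2) (h : a.1 = el β ρ v z) :
    coord β ρ hnd a = (v, z) := by
  have h1 := coord_spec β hnd ρ a
  rw [h] at h1
  obtain ⟨e1, e2⟩ := el_inj β ρ h1
  exact Prod.ext e1.symm e2.symm

lemma el_mem (v : U) (z : ZMod 2) : el β ρ v z ∈ (piK β ρ).ker :=
  (mem_ker_piK β ρ _).2 rfl

/-- The map to `U`. -/
noncomputable def chi (hnd : ∀ v : U, v ≠ 0 → ∃ u : U, β u v + β v u ≠ 0) :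
    (piK β ρ).ker →* Multiplicative U where
  toFun a := Multiplicative.ofAdd (coord β ρ hnd a).1
  map_one' := by
    have : coord β ρ hnd (1 : (piK β ρ).ker) = (0, 0) := coord_eq β hnd ρ _ 0 0 (el_one β ρ).symm
    rw [this]
    rfl
  map_mul' a b := by
    have h1 := coord_spec β hnd ρ a
    have h2 := coord_spec β hnd ρ b
    have : coord β ρ hnd (a * b) = _ := coord_eq β hnd ρ (a * b) _ _ (by
      show a.1 * b.1 = _
      rw [h1, h2, el_mul])
    rw [this]
    rfl

lemma chi_apply (a : (piK β ρ).ker) :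
    Multiplicative.toAdd (chi β ρ hnd a) = (coord β ρ hnd a).1 := rfl

lemma chi_surjective : Function.Surjective (chi β ρ hnd) := by
  intro y
  refine ⟨⟨el β ρ (Multiplicative.toAdd y) 0, el_mem β ρ _ _⟩, ?_⟩
  have : coord β ρ hnd ⟨el β ρ (Multiplicative.toAdd y) 0, el_mem β ρ _ _⟩ = _ :=
    coord_eq β hnd ρ _ _ _ rfl
  show Multiplicative.ofAdd _ = y
  rw [this]
  rfl

lemma chi_sq (a : (piK β ρ).ker) :
    a * a = 1 ↔ β (Multiplicative.toAdd (chi β ρ hnd a)) (Multiplicative.toAdd (chi β ρ hnd a)) = 0 := by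
  have h1 := coord_spec β hnd ρ a
  rw [chi_apply]
  constructor
  · intro h
    have h2 : a.1 * a.1 = 1 := congrArg Subtype.val h
    rw [h1, el_mul, char2, ← el_one β ρ] at h2
    have := (el_inj β ρ h2).2
    rw [CharTwo.add_self_eq_zero, zero_add] at this
    exact this
  · intro h
    apply Subtype.ext
    show a.1 * a.1 = 1
    rw [h1, el_mul, char2, h, add_zero, CharTwo.add_self_eq_zero, el_one]

lemma chi_ker (a : (piK β ρ).ker) :
    chi β ρ hnd a = 1 ↔ ∀ b : (piK β ρ).ker, a * b = b * a := by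
  have h1 := coord_spec β hnd ρ a
  set v := (coord β ρ hnd a).1 with hv
  set z := (coord β ρ hnd a).2 with hz
  have hχ : chi β ρ hnd a = 1 ↔ v = 0 := by
    constructor
    · intro h
      have := congrArg Multiplicative.toAdd h
      rw [chi_apply] at this
      exact this
    · intro h
      apply Multiplicative.toAdd.injective
      rw [chi_apply]
      exact h
  rw [hχ]
  constructor
  · intro h b
    have h2 := coord_spec β hnd ρ b
    apply Subtype.ext
    show a.1 * b.1 = b.1 * a.1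
    rw [h1, h2, el_mul, el_mul, h]
    simp [add_comm]
  · intro h
    by_contra hne
    obtain ⟨u, hu⟩ := hnd v hne
    have h3 := congrArg Subtype.val (h ⟨el β ρ u 0, el_mem β ρ _ _⟩)
    have h4 : a.1 * el β ρ u 0 = el β ρ u 0 * a.1 := h3
    rw [h1, el_mul, el_mul] at h4
    obtain ⟨-, e⟩ := el_inj β ρ h4
    simp only [add_zero, zero_add] at e
    apply hu
    rw [add_left_cancel e]
    exact CharTwo.add_self_eq_zero _

lemma chi_conj (r : RR β ρ) (a : (piK β ρ).ker) (h : r * a.1 * r⁻¹ ∈ (piK β ρ).ker) :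
    chi β ρ hnd ⟨r * a.1 * r⁻¹, h⟩ =
      Multiplicative.ofAdd (ρ (piK β ρ r) (Multiplicative.toAdd (chi β ρ hnd a))) := by
  have h1 := coord_spec β hnd ρ a
  rw [chi_apply]
  set v := (coord β ρ hnd a).1 with hv
  set z := (coord β ρ hnd a).2 with hz
  obtain ⟨⟨k, T⟩, h2, h3, h4⟩ := r
  obtain ⟨z', hz'⟩ := h4 v
  have hinv : (((T⁻¹ : (Matrix U U ℝ)ˣ) : Matrix U U ℝ)) = (T : Matrix U U ℝ)ᵀ :=
    Units.inv_eq_of_mul_eq_one_right h3
  have key : (⟨(k, T), h2, h3, h4⟩ : RR β ρ) * a.1 * (⟨(k, T), h2, h3, h4⟩ : RR β ρ)⁻¹ =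
      el β ρ (ρ k v) (z + z') := by
    rw [h1]
    apply el_ext
    · show k * 1 * k⁻¹ = 1
      rw [mul_one, mul_inv_cancel]
    · show (T : Matrix U U ℝ) * (sg z • E β v) * ((T⁻¹ : (Matrix U U ℝ)ˣ) : Matrix U U ℝ) =
        sg (z + z') • E β (ρ k v)
      rw [hinv, Matrix.mul_smul, Matrix.smul_mul, sg_add, ← smul_smul]
      congr 1
  have : coord β ρ hnd ⟨_, h⟩ = _ := coord_eq β hnd ρ ⟨_, h⟩ _ _ key
  show Multiplicative.ofAdd (coord β ρ hnd _).1 = _
  rw [this]
  rfl

lemma card_chi_ker : Nat.card (chi β ρ hnd).ker = 2 := by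
  have hmem : ∀ z : ZMod 2, (⟨el β ρ 0 z, el_mem β ρ 0 z⟩ : (piK β ρ).ker) ∈ (chi β ρ hnd).ker := by
    intro z
    rw [MonoidHom.mem_ker]
    apply Multiplicative.toAdd.injective
    rw [chi_apply]
    have : coord β ρ hnd ⟨el β ρ 0 z, el_mem β ρ 0 z⟩ = _ := coord_eq β hnd ρ _ 0 z rfl
    rw [this]
    rfl
  let F : ZMod 2 → (chi β ρ hnd).ker := fun z => ⟨⟨el β ρ 0 z, el_mem β ρ 0 z⟩, hmem z⟩
  have hbij : Function.Bijective F := by
    constructor
    · intro x y hxy
      have : el β ρ (0 : U) x = el β ρ 0 y := congrArg (fun t => t.1.1) hxy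
      exact (el_inj β ρ this).2
    · rintro ⟨a, ha⟩
      have h0 := coord_spec β hnd ρ a
      have h1 : (coord β ρ hnd a).1 = 0 := by
        have := congrArg Multiplicative.toAdd (MonoidHom.mem_ker.mp ha)
        rw [chi_apply] at this
        exact this
      refine ⟨(coord β ρ hnd a).2, ?_⟩
      apply Subtype.ext
      apply Subtype.ext
      show el β ρ 0 _ = a.1
      have h2 : a.1 = el β ρ 0 (coord β ρ hnd a).2 := by
        conv_lhs => rw [h0, h1]
      exact h2.symm
  rw [← Nat.card_congr (Equiv.ofBijective F hbij)]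
  simp

include hnd in
lemma finite_RR [Finite K] (hq : ∀ (k : K) (u : U), β (ρ k u) (ρ k u) = β u u) : Finite (RR β ρ) := by
  haveI : Finite (piK β ρ).ker := by
    apply Finite.of_injective (coord β ρ hnd)
    intro a b hab
    apply Subtype.ext
    rw [coord_spec β hnd ρ a, coord_spec β hnd ρ b, hab]
  haveI : Finite (RR β ρ ⧸ (piK β ρ).ker) :=
    Finite.of_equiv K (QuotientGroup.quotientKerEquivOfSurjective _ (piK_surjective β hnd ρ hq)).symm.toEquiv
  exact Finite.of_subgroup_quotient (piK β ρ).ker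

end group

end matrices

section package

variable {K U : Type*} [Group K] [AddCommGroup U] [Module (ZMod 2) U]

lemma extraspecial_of {Q : Type*} [Group Q] [Finite Q] (χ : Q →* Multiplicative U)
    (hs : Function.Surjective χ) (hker : χ.ker = Subgroup.center Q)
    (hc : Nat.card (Subgroup.center Q) = 2) (hU : 1 < Nat.card U) :
    Cfsg.IsExtraspecial 2 Q := by
  haveI : Fact (Nat.Prime 2) := ⟨Nat.prime_two⟩
  have hsq : ∀ x : Q, x ^ 2 ∈ Subgroup.center Q := by
    intro x
    rw [← hker, MonoidHom.mem_ker, map_pow]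
    apply Multiplicative.toAdd.injective
    rw [toAdd_pow, two_nsmul]
    exact char2 _
  have h2 : ∀ x : Subgroup.center Q, x ^ 2 = 1 := by
    intro x
    have : x ^ Nat.card (Subgroup.center Q) = 1 := pow_card_eq_one'
    rwa [hc] at this
  have hp : IsPGroup 2 Q := by
    intro x
    refine ⟨2, ?_⟩
    have := h2 ⟨x ^ 2, hsq x⟩
    have h3 : (x ^ 2) ^ 2 = 1 := congrArg Subtype.val this
    rw [← pow_mul] at h3
    exact h3
  have hcomm_le : commutator Q ≤ Subgroup.center Q := by
    rw [← hker, commutator_eq_closure, Subgroup.closure_le]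
    rintro _ ⟨x, y, rfl⟩
    rw [SetLike.mem_coe, MonoidHom.mem_ker, map_commutatorElement, commutatorElement_eq_one_iff_mul_comm]
    exact mul_comm _ _
  have hne : commutator Q ≠ ⊥ := by
    intro h
    have hab : ∀ x y : Q, x * y = y * x := by
      intro x y
      have h1 : ⁅x, y⁆ ∈ commutator Q := Subgroup.commutator_mem_commutator (Subgroup.mem_top x) (Subgroup.mem_top y)
      rw [h, Subgroup.mem_bot, commutatorElement_eq_one_iff_mul_comm] at h1
      exact h1
    have hctop : Subgroup.center Q = ⊤ := by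
      ext x
      simp only [Subgroup.mem_top, iff_true, Subgroup.mem_center_iff]
      exact fun g => hab g x
    have htriv : ∀ y : Multiplicative U, y = 1 := by
      intro y
      obtain ⟨x, rfl⟩ := hs y
      have : x ∈ χ.ker := by
        rw [hker, hctop]
        trivial
      exact this
    have : Subsingleton U := ⟨fun a b => by
      have h1 := htriv (Multiplicative.ofAdd a)
      have h3 := htriv (Multiplicative.ofAdd b)
      exact Multiplicative.ofAdd.injective (h1.trans h3.symm)⟩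
    have := Nat.card_of_subsingleton (0 : U)
    omega
  have hcomm : commutator Q = Subgroup.center Q := by
    apply Subgroup.eq_of_le_of_card_ge hcomm_le
    rw [hc]
    have h1 : Nat.card (commutator Q) ≠ 1 := by
      intro h
      exact hne ((Subgroup.card_eq_one).1 h)
    have h3 : Nat.card (commutator Q) ∣ Nat.card (Subgroup.center Q) :=
      Subgroup.card_dvd_of_le hcomm_le
    rw [hc] at h3
    have := (Nat.dvd_prime Nat.prime_two).1 h3
    omega
  have hfr : frattini Q = Subgroup.center Q := by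
    apply le_antisymm
    · exact Cfsg.Agent.Lib.PGroups.Basic.frattini_le_of_normal _ hcomm_le hsq
    · rw [← hcomm]
      exact Cfsg.Agent.Lib.PGroups.Basic.commutator_le_frattini hp
  exact ⟨⟨hp, hfr, hcomm⟩, hc⟩

/-- A synonym of `Fin n` without algebraic structure. -/
def Car (n : ℕ) : Type := Fin n

instance (n : ℕ) : Finite (Car n) := inferInstanceAs (Finite (Fin n))

/-- Packaging: transport to `Type` and the statement's conclusion. -/
theorem package (ρ : Representation (ZMod 2) K U) (q : U → ZMod 2) (n : ℕ)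
    (hU : Nat.card U = 2 ^ (2 * n)) (hn1 : 1 ≤ n)
    {R₀ : Type*} [Group R₀] [Finite R₀] (π : R₀ →* K) (hπ : Function.Surjective π)
    (χ₀ : π.ker →* Multiplicative U) (hs : Function.Surjective χ₀)
    (hker : ∀ a, χ₀ a = 1 ↔ ∀ b : π.ker, a * b = b * a) (hc2 : Nat.card χ₀.ker = 2)
    (hconj : ∀ (r : R₀) (a : π.ker) (h : r * a.1 * r⁻¹ ∈ π.ker), χ₀ ⟨r * a.1 * r⁻¹, h⟩ =
      Multiplicative.ofAdd (ρ (π r) (Multiplicative.toAdd (χ₀ a))))
    (hsq : ∀ a : π.ker, a * a = 1 ↔ q (Multiplicative.toAdd (χ₀ a)) = 0) :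
    ∃ (R : Type) (_ : Group R) (_ : Finite R) (Q : Subgroup R) (hN : Q.Normal) (e : R ⧸ Q ≃* K)
      (χ : ↥Q →* Multiplicative U), Cfsg.IsExtraspecial 2 ↥Q ∧ Nat.card ↥Q = 2 ^ (2 * n + 1) ∧
        Function.Surjective χ ∧ χ.ker = Subgroup.center ↥Q ∧
        (∀ (r : R) (a : ↥Q), χ ⟨r * a * r⁻¹, hN.conj_mem (a : R) a.2 r⟩ =
          Multiplicative.ofAdd (ρ (e (r : R ⧸ Q)) (Multiplicative.toAdd (χ a)))) ∧
        ∀ a : ↥Q, a * a = 1 ↔ q (Multiplicative.toAdd (χ a)) = 0 := by
  let eqv : R₀ ≃ Car (Nat.card R₀) := Finite.equivFin R₀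
  letI : Group (Car (Nat.card R₀)) := eqv.symm.group
  let φ : Car (Nat.card R₀) ≃* R₀ := eqv.symm.mulEquiv
  let π' : Car (Nat.card R₀) →* K := π.comp φ.toMonoidHom
  have hπ' : Function.Surjective π' := hπ.comp φ.surjective
  have hmem : ∀ x : π'.ker, φ x.1 ∈ π.ker := fun x => x.2
  let ψ : π'.ker →* π.ker :=
    { toFun := fun x => ⟨φ x.1, hmem x⟩
      map_one' := by
        apply Subtype.ext
        exact map_one φ
      map_mul' := fun x y => by
        apply Subtype.ext
        exact map_mul φ x.1 y.1 }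
  have hψ : Function.Bijective ψ := by
    constructor
    · intro x y hxy
      apply Subtype.ext
      apply φ.injective
      exact congrArg Subtype.val hxy
    · intro y
      refine ⟨⟨φ.symm y.1, ?_⟩, ?_⟩
      · show π (φ (φ.symm y.1)) = 1
        rw [φ.apply_symm_apply]
        exact y.2
      · apply Subtype.ext
        exact φ.apply_symm_apply y.1
  let χ : π'.ker →* Multiplicative U := χ₀.comp ψ
  have hχs : Function.Surjective χ := hs.comp hψ.2
  have hχk : χ.ker = Subgroup.center π'.ker := by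
    ext x
    rw [MonoidHom.mem_ker, Subgroup.mem_center_iff]
    show χ₀ (ψ x) = 1 ↔ _
    rw [hker]
    constructor
    · intro h g
      apply hψ.1
      rw [map_mul, map_mul]
      exact (h (ψ g)).symm
    · intro h b
      obtain ⟨g, rfl⟩ := hψ.2 b
      rw [← map_mul, ← map_mul, h g]
  have hcker : Nat.card χ.ker = 2 := by
    rw [← hc2]
    apply Nat.card_congr
    exact Equiv.ofBijective (fun x : χ.ker => (⟨ψ x.1, x.2⟩ : χ₀.ker)) (by
      constructor
      · intro x y hxy
        apply Subtype.ext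
        apply hψ.1
        exact congrArg Subtype.val hxy
      · rintro ⟨y, hy⟩
        obtain ⟨x, rfl⟩ := hψ.2 y
        exact ⟨⟨x, hy⟩, rfl⟩)
  have hUg : 1 < Nat.card U := by
    rw [hU]
    exact Nat.one_lt_two_pow (by omega)
  have hex : Cfsg.IsExtraspecial 2 π'.ker :=
    extraspecial_of χ hχs hχk (by rw [← hχk]; exact hcker) hUg
  have hcard : Nat.card π'.ker = 2 ^ (2 * n + 1) := by
    have h1 := χ.ker.card_mul_index
    rw [Subgroup.index_ker, MonoidHom.range_eq_top.mpr hχs, hcker] at h1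
    rw [← h1, Nat.card_congr (Subgroup.topEquiv).toEquiv]
    show 2 * Nat.card U = _
    rw [hU]
    ring
  refine ⟨Car (Nat.card R₀), inferInstance, inferInstance, π'.ker, π'.normal_ker,
    QuotientGroup.quotientKerEquivOfSurjective π' hπ', χ, hex, hcard, hχs, hχk, ?_, ?_⟩
  · intro r a
    have h1 := hconj (φ r) (ψ a) (by
      show φ r * φ a.1 * (φ r)⁻¹ ∈ π.ker
      rw [← map_inv, ← map_mul, ← map_mul]
      exact π'.normal_ker.conj_mem a.1 a.2 r)
    have e1 : χ ⟨r * a * r⁻¹, π'.normal_ker.conj_mem (a : _) a.2 r⟩ = χ₀ ⟨φ r * φ a.1 * (φ r)⁻¹, by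
      rw [← map_inv, ← map_mul, ← map_mul]
      exact π'.normal_ker.conj_mem a.1 a.2 r⟩ := by
      show χ₀ (ψ _) = _
      congr 1
      apply Subtype.ext
      show φ (r * a.1 * r⁻¹) = φ r * φ a.1 * (φ r)⁻¹
      rw [map_mul, map_mul, map_inv]
    rw [e1]
    exact h1
  · intro a
    show _ ↔ q (Multiplicative.toAdd (χ₀ (ψ a))) = 0
    rw [← hsq]
    constructor
    · intro h
      rw [← map_mul, h, map_one]
    · intro h
      apply hψ.1
      rw [map_mul, h, map_one]

end package

/-- The main theorem (the plus-type hypothesis is not needed). -/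
theorem main {K : Type*} [Group K] {U : Type*} [AddCommGroup U] [Module (ZMod 2) U]
    [Module.Finite (ZMod 2) U] (n : ℕ) (hn1 : 1 ≤ n) (hn : Module.finrank (ZMod 2) U = 2 * n)
    (ρ : Representation (ZMod 2) K U) (hρ : Function.Injective ρ) (q : QuadraticForm (ZMod 2) U)
    (hq : ∀ (k : K) (u : U), q (ρ k u) = q u) (hnd : (QuadraticMap.polarBilin q).Nondegenerate) :
    ∃ (R : Type) (_ : Group R) (_ : Finite R) (Q : Subgroup R) (hN : Q.Normal) (e : R ⧸ Q ≃* K)
      (χ : ↥Q →* Multiplicative U), Cfsg.IsExtraspecial 2 ↥Q ∧ Nat.card ↥Q = 2 ^ (2 * n + 1) ∧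
        Function.Surjective χ ∧ χ.ker = Subgroup.center ↥Q ∧
        (∀ (r : R) (a : ↥Q), χ ⟨r * a * r⁻¹, hN.conj_mem (a : R) a.2 r⟩ =
          Multiplicative.ofAdd (ρ (e (r : R ⧸ Q)) (Multiplicative.toAdd (χ a)))) ∧
        ∀ a : ↥Q, a * a = 1 ↔ q (Multiplicative.toAdd (χ a)) = 0 := by
  classical
  haveI hfin : Finite U := Module.finite_of_finite (ZMod 2)
  letI : Fintype U := Fintype.ofFinite U
  obtain ⟨β, hβ⟩ := LinearMap.BilinMap.toQuadraticMap_surjective (R := ZMod 2) q
  have hβu : ∀ u, β u u = q u := fun u => by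
    rw [← hβ]
    rfl
  have hpol : ∀ u v, QuadraticMap.polarBilin q u v = β u v + β v u := by
    intro u v
    rw [QuadraticMap.polarBilin_apply_apply, QuadraticMap.polar, ← hβu, ← hβu, ← hβu]
    simp only [map_add, LinearMap.add_apply]
    ring
  have hnd' : ∀ v : U, v ≠ 0 → ∃ u : U, β u v + β v u ≠ 0 := by
    intro v hv
    by_contra hcon
    push Not at hcon
    apply hv
    apply hnd.2
    intro u
    rw [hpol]
    exact hcon u
  have hq' : ∀ (k : K) (u : U), β (ρ k u) (ρ k u) = β u u := fun k u => by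
    rw [hβu, hβu, hq]
  haveI hfinK : Finite K := by
    have : Finite (U →ₗ[ZMod 2] U) :=
      Finite.of_injective (fun f : U →ₗ[ZMod 2] U => (f : U → U)) DFunLike.coe_injective
    exact Finite.of_injective _ hρ
  haveI : Finite (RR β ρ) := finite_RR β hnd' ρ hq'
  have hU : Nat.card U = 2 ^ (2 * n) := by
    rw [Nat.card_eq_fintype_card, Module.card_eq_pow_finrank (K := ZMod 2) (V := U), ZMod.card, hn]
  refine package ρ (fun u => q u) n hU hn1 (piK β ρ) (piK_surjective β hnd' ρ hq') (chi β ρ hnd')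
    (chi_surjective β hnd' ρ) (chi_ker β hnd' ρ) (card_chi_ker β hnd' ρ) (chi_conj β hnd' ρ) ?_
  intro a
  rw [chi_sq β hnd' ρ a, hβu]

end Cfsg.Agent.Lib.InvolChar.CliffordGroup
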